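import Cfsg.Agent.H4.FT
import Cfsg.Agent.H5.Ito
import Cfsg.Agent.H9.Coprime
import Cfsg.Agent.H1.Factor
import Cfsg.Agent.H1.Fitting

/-!
# Normal Sylow subgroups of complex linear groups of small degree
-/

set_option autoImplicit false
set_option linter.dupNamespace false

open scoped ComplexConjugate commutatorElement
open Subgroup Finset

namespace Cfsg

open Cfsg.H4

universe u v

namespace H4

variable {G : Type u} [Group G]

open scoped IsMulCommutative in
theorem eq_one_of_mem_center_of_mem_commutator [Finite G] {p : ℕ} [Fact p.Prime] {P : Subgroup G}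
    (hP : H7.IsSylowIn p P ⊤) (hab : ∀ a ∈ P, ∀ b ∈ P, a * b = b * a) {z : G} (h1 : z ∈ P)
    (h2 : z ∈ center G) (h3 : z ∈ commutator G) : z = 1 := by
  have : IsMulCommutative P := ⟨⟨fun a b => Subtype.ext (hab a a.2 b b.2)⟩⟩
  have h4 := MonoidHom.transfer_eq_pow (MonoidHom.id P) z (fun k g _ => by
    rw [mul_assoc, ← mem_center_iff.mp (pow_mem h2 k) g, inv_mul_cancel_left])
  rw [Abelianization.commutator_subset_ker _ h3] at h4
  have h5 : z ^ P.index = 1 := (congrArg Subtype.val h4).symm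
  obtain ⟨k, hk⟩ := H7.isPGroup_iff_mem.mp hP.isPGroup z h1
  refine H7.eq_one_of_coprime_of_pow (Nat.Coprime.coprime_dvd_left
    (orderOf_dvd_of_pow_eq_one h5) ?_) hk
  simpa using hP.coprime_relIndex

theorem apply_eq_of_constituents [Fintype G] {χ : G → ℂ} (hχ : IsClassFunction G χ) {g : G}
    (h : ∀ ψ, IsIrrCharacter G ψ → classInner χ ψ ≠ 0 → ψ g = ψ 1) : χ g = χ 1 := by
  rw [hχ.apply_eq_sum_irr g, hχ.apply_eq_sum_irr 1]
  refine sum_congr rfl fun θ _ => ?_
  by_cases h3 : classInner χ θ = 0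
  · rw [h3, zero_mul, zero_mul]
  · rw [h θ θ.2 h3]

theorem comm_of_degree_lt [Finite G] {p n : ℕ} [hp : Fact p.Prime] (hnp : n < p) {χ : G → ℂ}
    (hχ : IsCharacter G χ) (h1 : χ 1 = n) (hf : ∀ g, χ g = χ 1 → g = 1) {R : Subgroup G}
    (hR : IsPGroup p R) : ∀ a ∈ R, ∀ b ∈ R, a * b = b * a := by
  intro a ha b hb
  have := Fintype.ofFinite R
  rw [← commutatorElement_eq_one_iff_mul_comm]
  refine hf _ (apply_eq_of_constituents (hχ.restrict R).isClassFunction
    (g := ⁅(⟨a, ha⟩ : R), ⟨b, hb⟩⁆) fun θ hθ h2 => ?_)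
  obtain ⟨d, -, hd⟩ := hθ.exists_apply_one
  have h3 := (hχ.restrict R).le_apply_one_of_constituent hθ h2
  simp only [hd, OneMemClass.coe_one, h1, Complex.natCast_re, Nat.cast_le] at h3
  obtain ⟨k, hk⟩ := hR.exists_card_eq
  have h4 := H5.degree_dvd_card hθ hd
  rw [hk] at h4
  have h5 : d = 1 := by
    obtain ⟨j, -, rfl⟩ := (Nat.dvd_prime_pow hp.out).mp h4
    rcases j with _ | j
    · rfl
    · have : p ≤ p ^ (j + 1) := Nat.le_self_pow (Nat.succ_ne_zero j) p
      omega
  rw [h5, Nat.cast_one] at hd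
  rw [hd]
  exact hθ.isCharacter.apply_eq_one_of_mem_commutator hd
    (commutator_mem_commutator (mem_top _) (mem_top _))

theorem normal_sylow_of_degree (n p : ℕ) [hp : Fact p.Prime] (hnp : n + 1 < p) (m : ℕ) :
    ∀ (G : Type u) [Group G] [Finite G], Nat.card G = m → ∀ χ : G → ℂ, IsCharacter G χ →
      χ 1 = n → (∀ g, χ g = χ 1 → g = 1) →
      ((n + 1) ^ 2 ≤ p ∨ ∀ K T : Subgroup G, ¬ p ^ 2 ∣ Nat.card K → H7.IsSylowIn p T K →
        K ≤ normalizer (T : Set G)) →
      ∀ P : Subgroup G, H7.IsSylowIn p P ⊤ → P.Normal := by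
  induction m using Nat.strong_induction_on with
  | _ m ih =>
  intro G _ _ hm χ hχ h1 hf hyp P hP
  classical
  have := Fintype.ofFinite G
  have IH : ∀ H : Subgroup G, H ≠ ⊤ → ∀ T, H7.IsSylowIn p T H → H ≤ normalizer (T : Set G) := by
    intro H hH T hT
    have h2 := hT.subgroupOf le_rfl
    rw [subgroupOf_self] at h2
    have := ih _ (hm ▸ H1.card_lt_of_ne_top hH) H rfl _ (hχ.restrict H) h1
      (fun g hg => Subtype.ext (hf g hg)) (hyp.imp id fun h K T hK hT => by
        have := h _ _ (by rwa [H7.card_map_subtype]) (hT.map_of_injective H.subtype_injective)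
        rw [← map_le_map_iff_of_injective H.subtype_injective, H7.map_normalizer_subgroup]
        exact le_inf (map_subtype_le _) this) _ h2
    exact (normal_subgroupOf_iff_le_normalizer hT.le).mp this
  have hab := fun {R : Subgroup G} => comm_of_degree_lt (R := R) (by omega : n < p) hχ h1 hf
  have hcon : ∀ ψ, IsIrrCharacter G ψ → classInner χ ψ ≠ 0 → ∃ d : ℕ, 0 < d ∧ d ≤ n ∧ ψ 1 = d :=
    fun ψ hψ h2 => by
      obtain ⟨d, hd0, hd⟩ := hψ.exists_apply_one
      have h3 := hχ.le_apply_one_of_constituent hψ h2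
      simp only [hd, h1, Complex.natCast_re, Nat.cast_le] at h3
      exact ⟨d, hd0, h3, hd⟩
  have hnorm : ∀ M T : Subgroup G, M.Normal → M ≠ ⊤ → H7.IsSylowIn p T M → T.Normal :=
    fun M T hM h2 hT => H7.normal_of_forall_cj_le fun g =>
      hT.le_of_le_normalizer (H7.isPGroup_cj hT.isPGroup)
        (H7.cj_le_of_le (le_normalizer_of_normal (mem_top g)) hT.le)
        ((H7.cj_le_of_le (le_normalizer_of_normal (mem_top g)) hT.le).trans (IH M h2 T hT))
  by_contra hPn
  have hN : ∀ M : Subgroup G, M.Normal → P ≤ M → M = ⊤ := fun M hM h2 => by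
    by_contra h3
    exact hPn (hnorm M P hM h3 (hP.mono h2 le_top))
  have hcen : ∀ R : Subgroup G, R.Normal → R ≤ centralizer (P : Set G) → R ≤ center G :=
    fun R hR h2 => by
      rw [← H7.centralizer_top', le_centralizer_iff, hN _ inferInstance (le_centralizer_iff.mp h2)]
  have hPc : P ≤ centralizer (P : Set G) := fun x hx y hy => hab hP.isPGroup y hy x hx
  have hZ : ∀ z ∈ P, z ∈ center G → z ∈ commutator G → z = 1 := fun z =>
    eq_one_of_mem_center_of_mem_commutator hP (hab hP.isPGroup)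
  by_cases hK : commutator G = ⊤
  · have : ∃ ψ, IsIrrCharacter G ψ ∧ classInner χ ψ ≠ 0 ∧ ψ 1 ≠ 1 := by
      by_contra! hc
      refine hPn ⟨fun x hx g => ?_⟩
      rw [hf (g * x * g⁻¹) (apply_eq_of_constituents hχ.isClassFunction fun ψ h2 h3 => by
        rw [h2.isCharacter.apply_eq_one_of_mem_commutator (hc ψ h2 h3) (hK ▸ mem_top _),
          hc ψ h2 h3])]
      exact one_mem _
    obtain ⟨ψ, hψ, h2, h3⟩ := this
    obtain ⟨d, -, hdn, hd⟩ := hcon ψ hψ h2
    have hZ' : ∀ a : G, ∀ z ∈ H7.cj a P, z ≠ 1 → centralizer ({z} : Set G) ≠ ⊤ := by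
      rintro a _ ⟨z, hz, rfl⟩ h4 h5
      have h6 := centralizer_eq_top_iff_subset.mp h5 (Set.mem_singleton _)
      have h7 : z ∈ center G := by
        simpa [mul_assoc] using (inferInstance : (center G).Normal).conj_mem _ h6 a⁻¹
      exact h4 (by simp [hZ z hz h7 (hK ▸ mem_top _)])
    have hle : ∀ a : G, ∀ z ∈ H7.cj a P, H7.cj a P ≤ centralizer ({z} : Set G) :=
      fun a z hz y hy => mem_centralizer_singleton_iff.mpr
        (hab (H7.isPGroup_cj hP.isPGroup) y hy z hz)
    have hsyl : ∀ a : G, ∀ z ∈ H7.cj a P, H7.IsSylowIn p (H7.cj a P) (centralizer ({z} : Set G)) :=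
      fun a z hz => (hP.cj_of_mem (mem_top a)).mono (hle a z hz) le_top
    have := Fintype.ofFinite P
    have h4 := feit_thompson_bound' P (hab hP.isPGroup)
      (eq_bot_iff.mpr fun z hz => hZ z hz.1 hz.2 (hK ▸ mem_top _)) (fun g hg a b ha hb => by
        obtain ⟨⟨x, hx1, hx2⟩, hx⟩ := ne_bot_iff_exists_ne_one.mp ha
        obtain ⟨⟨y, hy1, hy2⟩, hy⟩ := ne_bot_iff_exists_ne_one.mp hb
        have hx : x ≠ 1 := fun h => hx (Subtype.ext h)
        have hy : y ≠ 1 := fun h => hy (Subtype.ext h)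
        have hxp := H7.isPGroup_iff_mem.mp (H7.isPGroup_cj (g := a) hP.isPGroup) x hx2
        have hyp := H7.isPGroup_iff_mem.mp (H7.isPGroup_cj (g := b) hP.isPGroup) y hy2
        obtain ⟨S, hS⟩ := H7.exists_isSylowIn p (centralizer ({g} : Set G))
        have h5 := IH _ (fun h => hg (centralizer_eq_top_iff_subset.mp h (Set.mem_singleton _)))
          S hS
        have h6 := hab hS.isPGroup y (hS.mem_of_mem_normalizer hyp hy1 (h5 hy1)) x
          (hS.mem_of_mem_normalizer hxp hx1 (h5 hx1))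
        have h7 : y ∈ H7.cj a P := (hsyl a x hx2).mem_of_mem_normalizer hyp
          (mem_centralizer_singleton_iff.mpr h6)
          (IH _ (hZ' a x hx2 hx) _ (hsyl a x hx2) (mem_centralizer_singleton_iff.mpr h6))
        exact ((hP.cj_of_mem (mem_top a)).max _ (H7.isPGroup_cj hP.isPGroup)
          ((hsyl b y hy2).le_of_le_normalizer (H7.isPGroup_cj hP.isPGroup) (hle a y h7)
            ((hle a y h7).trans (IH _ (hZ' b y hy2 hy) _ (hsyl b y hy2)))) le_top).symm)
      hψ h3 hN
    rw [hd, Complex.natCast_re] at h4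
    have h5 : Nat.card P < (1 + d) ^ 2 := by exact_mod_cast h4
    have h6 : Nat.card P < (n + 1) ^ 2 := h5.trans_le (Nat.pow_le_pow_left (by omega) 2)
    obtain ⟨k, hk⟩ := hP.isPGroup.exists_card_eq
    rcases hyp with h | h
    · rcases k with _ | k
      · rw [pow_zero, Subgroup.card_eq_one] at hk
        exact hPn (hk ▸ inferInstance)
      · have : p ≤ p ^ (k + 1) := Nat.le_self_pow (Nat.succ_ne_zero k) p
        omega
    · refine hPn (H7.normal_of_le_normalizer_top (h ⊤ P (fun h7 => ?_) hP))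
      rw [← H7.relIndex_mul_card_of_le hP.le] at h7
      have h8 := Nat.le_of_dvd Nat.card_pos
        ((hP.coprime_relIndex.symm.pow_left 2).dvd_of_dvd_mul_left h7)
      have := Nat.pow_lt_pow_left hnp two_ne_zero
      omega
  set K := commutator G with hKdef
  have hT := hP.inf_of_normal (N := K) le_top le_normalizer_of_normal
  have hPK : P ⊓ K = ⊥ := eq_bot_iff.mpr fun z hz =>
    hZ z hz.1 (hcen _ (hnorm K _ inferInstance hK hT) (inf_le_left.trans hPc) hz) hz.2
  rw [hPK] at hT
  have hcop := hT.coprime_of_eq_bot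
  have hsup : P ⊔ K = ⊤ := hN _ (Normal.of_commutator_le G le_sup_right) le_sup_left
  have L1 : ∀ U : Subgroup G, U ≤ K → P ≤ normalizer (U : Set G) → U ≠ K →
      U ≤ centralizer (P : Set G) := fun U h2 h3 h4 => by
    have h5 : U ⊔ P ≠ ⊤ := fun h => h4 (by
      have := H7.dedekind_right (B := P) h2 h3
      rwa [h, top_inf_eq, hPK, sup_bot_eq, eq_comm] at this)
    have h6 := IH _ h5 P (hP.mono le_sup_right le_top)
    rw [← commutator_eq_bot_iff_le_centralizer, eq_bot_iff, ← hPK]
    exact le_inf (le_normalizer_iff_commutator_le_right.mp (le_sup_left.trans h6))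
      ((le_normalizer_iff_commutator_le_left.mp h3).trans h2)
  have hKP : ¬ K ≤ centralizer (P : Set G) := fun h => hPn (H7.normal_of_le_normalizer_top
    (hsup ▸ sup_le le_normalizer (h.trans (centralizer_le_normalizer _))))
  have : ∃ q : ℕ, q.Prime ∧ IsPGroup q K := by
    by_contra! hc
    refine hKP (H9.eq_of_forall_sylow_le fun q hq => ?_)
    have := Fact.mk hq
    obtain ⟨T, hT, h2⟩ := (H9.CoprimeAct.of_isPGroup_left hP.isPGroup
      (hp.out.coprime_iff_not_dvd.mp hcop.symm) le_normalizer_of_normal).exists_invariant_sylow q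
    exact ⟨T, hT, L1 T hT.le h2 fun h => hc q hq (h ▸ hT.isPGroup)⟩
  obtain ⟨q, hq, hKq⟩ := this
  have := Fact.mk hq
  have hK0 : K ≠ ⊥ := fun h => hKP (h ▸ bot_le)
  have hK' := H1.commutator_lt_of_isPGroup hKq hKq le_normalizer hK0
  have hK'C := L1 _ hK'.le le_normalizer_of_normal hK'.ne
  set C := K ⊓ centralizer (P : Set G) with hC
  have hCn : C.Normal := H7.normal_of_le_normalizer_top (hsup ▸ sup_le
    (H7.le_normalizer_inf le_normalizer_of_normal (H7.le_normalizer_centralizer le_normalizer))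
    (H7.le_normalizer_of_commutator_le inf_le_left (le_inf hK'.le hK'C)))
  have hCZ := hcen C hCn inf_le_right
  have : ∃ ψ, IsIrrCharacter G ψ ∧ classInner χ ψ ≠ 0 ∧ ∃ k ∈ K, ψ k ≠ ψ 1 := by
    by_contra! hc
    exact hK0 (eq_bot_iff.mpr fun k hk =>
      hf k (apply_eq_of_constituents hχ.isClassFunction fun ψ h2 h3 => hc ψ h2 h3 k hk))
  obtain ⟨ψ, hψ, h2, k, hk, h3⟩ := this
  obtain ⟨d, hd0, hdn, hd⟩ := hcon ψ hψ h2
  have hd1 : d ≠ 1 := by
    rintro rfl
    rw [Nat.cast_one] at hd
    exact h3 (by rw [hψ.isCharacter.apply_eq_one_of_mem_commutator hd hk, hd])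
  have hθ := H5.isIrr_restrict_of_coprime (N := K) hψ hd (by
    obtain ⟨j, hj⟩ := hP.isPGroup.exists_card_eq
    have h4 : K.index ∣ p ^ j := by
      rw [← relIndex_top_right, ← hsup, relIndex_sup_right, ← hj]
      exact relIndex_dvd_card K P
    refine Nat.Coprime.coprime_dvd_right h4 (Nat.Coprime.pow_right j ?_)
    exact (hp.out.coprime_iff_not_dvd.mpr (Nat.not_dvd_of_pos_of_lt hd0 (by omega))).symm)
  have hkn := hψ.isCharacter.charKer_normal
  let π := QuotientGroup.mk' (charKer ψ)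
  have hmn : (K.map π).Normal := Normal.map inferInstance π (QuotientGroup.mk'_surjective _)
  let R := K ⊓ (centralizer (K.map π : Set (G ⧸ charKer ψ))).comap π
  have hR : ∀ g ∈ K, g ∈ R ↔ ∀ y ∈ K, ⁅y, g⁆ ∈ charKer ψ := fun g hg => by
    simp only [R, Subgroup.mem_inf, hg, true_and, mem_comap, mem_centralizer_iff, SetLike.mem_coe,
      Subgroup.mem_map, forall_exists_index, and_imp, forall_apply_eq_imp_iff₂]
    refine forall₂_congr fun y _ => ?_
    rw [← commutatorElement_eq_one_iff_mul_comm, ← map_commutatorElement, ← MonoidHom.mem_ker,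
      QuotientGroup.ker_mk']
  have hRK : R ≠ K := fun h => hd1 (by
    have := hθ.apply_one_eq_one_of_commutator fun g hg => hψ.isCharacter.mem_charKer.mp (by
      have h4 : ⁅K, K⁆ ≤ charKer ψ := commutator_le.mpr fun x hx y hy =>
        (hR y hy).mp (h.symm ▸ hy) x hx
      exact h4 (map_subtype_commutator K ▸ ⟨g, hg, rfl⟩))
    simp only [OneMemClass.coe_one, hd] at this
    exact_mod_cast this)
  have hRC := L1 R inf_le_left le_normalizer_of_normal hRK
  have := Fintype.ofFinite K
  have h4 := classInner_self_re (fun x : K => ψ x)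
  rw [hθ.classInner_self, Complex.one_re, eq_inv_mul_iff_mul_eq₀
    (Nat.cast_ne_zero.mpr Nat.card_pos.ne'), mul_one,
    sum_congr rfl (g := fun x : K => if (x : G) ∈ C then (d : ℝ) ^ 2 else 0) (fun x _ => by
      split_ifs with hx
      · rw [hψ.isCharacter.mem_charCenter.mp (hψ.center_le_charCenter (hCZ hx)), hd,
          Complex.norm_natCast]
      · have h5 : (x : G) ∉ R := fun h => hx ⟨x.2, hRC h⟩
        rw [hR x x.2] at h5
        push Not at h5
        obtain ⟨y, hy, h6⟩ := h5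
        obtain ⟨l, -, hl⟩ := hψ.center_le_charCenter (hCZ
          (le_inf hK'.le hK'C (commutator_mem_commutator hy x.2)))
        have h7 := hl x
        rw [commutatorElement_def, inv_mul_cancel_right, hψ.isClassFunction] at h7
        have h8 : l ≠ 1 := by
          rintro rfl
          exact h6 fun z => by rw [hl, one_mul]
        have h9 : ψ x = 0 := by
          by_contra h
          exact h8 ((mul_eq_right₀ h).mp h7.symm)
        simp [h9]), ← sum_filter, sum_const, ← natCard_eq_card_filter (fun x : K => (x : G) ∈ C),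
    nsmul_eq_mul] at h4
  have h5 : Nat.card K = Nat.card C * d ^ 2 := by
    rw [← Nat.card_congr (subgroupOfEquivOfLe (inf_le_left : C ≤ K)).toEquiv]
    exact_mod_cast h4
  have h6 := H1.card_modEq_card_inf_centralizer hP.isPGroup
    (le_normalizer_of_normal : P ≤ normalizer (K : Set G))
  rw [h5, ← hC] at h6
  have h7 : d ^ 2 ≡ 1 [MOD p] := Nat.ModEq.cancel_left_of_coprime
    (hcop.coprime_dvd_left (card_dvd_of_le (inf_le_left : C ≤ K))).symm (by rwa [mul_one])
  have h8 := (Nat.modEq_iff_dvd' (Nat.one_le_pow _ _ hd0)).mp h7.symm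
  rw [show d ^ 2 - 1 = (d + 1) * (d - 1) from Nat.sq_sub_sq d 1] at h8
  rcases hp.out.dvd_mul.mp h8 with h9 | h9
  · have := Nat.le_of_dvd (by omega) h9
    omega
  · have := Nat.le_of_dvd (by omega) h9
    omega

end H4

end Cfsg
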