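import Cfsg.Agent.H4.Zass

/-!
# A degree bound of Feit and Thompson
-/

set_option autoImplicit false
set_option linter.dupNamespace false

open scoped ComplexConjugate commutatorElement
open Subgroup Finset

namespace Cfsg

open Cfsg.H4

universe u v

namespace H4

section Avg

variable {N : Type u} [Group N] [Fintype N] (K : Subgroup N) [Fintype K]

/-- Average of a function over the cosets of `K`. -/
noncomputable def kavg (f : N → ℂ) (x : N) : ℂ := (Nat.card K : ℂ)⁻¹ * ∑ h : K, f (h * x)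

theorem classInner_kavg (f g : N → ℂ) : classInner (kavg K f) g = classInner f (kavg K g) := by
  simp only [classInner, kavg, map_mul, map_inv₀, map_natCast, map_sum, mul_sum, sum_mul]
  rw [sum_comm, sum_comm (s := (univ : Finset N)), ← Equiv.sum_comp (Equiv.inv K)]
  refine sum_congr rfl fun h _ => ?_
  rw [← Equiv.sum_comp (Equiv.mulLeft (h : N))]
  refine sum_congr rfl fun x _ => ?_
  simp only [Equiv.inv_apply, Subgroup.coe_inv, Equiv.coe_mulLeft, inv_mul_cancel_left]
  ring

omit [Fintype N] in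
theorem kavg_mul (f : N → ℂ) {k : N} (hk : k ∈ K) (x : N) : kavg K f (k * x) = kavg K f x := by
  rw [kavg, kavg, ← Equiv.sum_comp (Equiv.mulRight (⟨k, hk⟩ : K)) fun h : K => f (h * x)]
  simp [mul_assoc]

omit [Fintype N] in
theorem kavg_kavg (f : N → ℂ) : kavg K (kavg K f) = kavg K f := by
  ext x
  rw [kavg]
  simp only [kavg_mul K f (Subtype.prop _), sum_const, card_univ, nsmul_eq_mul,
    ← Nat.card_eq_fintype_card]
  exact inv_mul_cancel_left₀ (card_ne_zero_complex K) _

omit [Fintype N] in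
theorem isClassFunction_kavg [hK : K.Normal] {f : N → ℂ} (hf : IsClassFunction N f) :
    IsClassFunction N (kavg K f) := fun g x => by
  rw [kavg, kavg, ← Equiv.sum_comp (MulAut.conjNormal x : K ≃* K).toEquiv]
  congr 1
  refine sum_congr rfl fun h _ => ?_
  rw [← hf (h * g) x]
  simp [mul_assoc]

omit [Fintype N] in
theorem kavg_of_fpf [Finite N] [hK : K.Normal] {f : N → ℂ} (hf : IsClassFunction N f) {x : N}
    (hx : ∀ n ∈ K, n * x = x * n → n = 1) : kavg K f x = f x := by
  rw [kavg, ← Function.Bijective.sum_comp (bijective_commutator_of_fpf K hx),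
    sum_congr rfl (g := fun _ => f x) (fun h _ => by
      rw [← hf x h]; simp [mul_assoc]), sum_const, card_univ, nsmul_eq_mul,
    ← Nat.card_eq_fintype_card]
  exact inv_mul_cancel_left₀ (card_ne_zero_complex K) _

end Avg

variable {G : Type u} [Group G]

theorem index_mul_sum_lt [Fintype G] {N : Subgroup G} [Fintype N] {X : Set G}
    [DecidablePred (· ∈ X)] (hX : ∀ g ∈ N, ∀ a ∈ X, g * a * g⁻¹ ∈ X)
    (hTI : ∀ g, g ∉ N → ∀ a ∈ X, g * a * g⁻¹ ∉ X) (h1 : (1 : G) ∉ X) {χ : G → ℂ}
    (hχ : IsIrrCharacter G χ) :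
    ∑ x ∈ univ.filter (fun x : N => (x : G) ∈ X), ‖χ x‖ ^ 2 < Nat.card N := by
  classical
  let θ : N → ℂ := fun x => if (x : G) ∈ X then 1 else 0
  have hθ : IsClassFunction N θ := fun x g => by
    simp only [θ, Subgroup.coe_mul, Subgroup.coe_inv]
    refine if_congr ⟨fun h => ?_, hX g g.2 x⟩ rfl rfl
    simpa [mul_assoc] using hX g⁻¹ (inv_mem g.2) _ h
  have h2 := sum_indFun_mul θ (hχ.isClassFunction.mul hχ.isClassFunction.conj)
  have h3 : ∀ g, indFun N θ g = 0 ∨ (indFun N θ g = 1 ∧ g ≠ 1) := fun g => by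
    by_cases h : ∀ y : N, IsConj g y → θ y = 0
    · exact Or.inl (indFun_eq_zero_of_not_isConj θ h)
    push Not at h
    obtain ⟨y, hy, h4⟩ := h
    have h5 : (y : G) ∈ X := by
      by_contra h5
      exact h4 (if_neg h5)
    refine Or.inr ⟨?_, ?_⟩
    · rw [(isClassFunction_indFun θ).eq_of_isConj hy,
        indFun_apply_of_TI hTI hθ (fun x hx => if_neg hx) y h5]
      exact if_pos h5
    · rintro rfl
      rw [isConj_one_right.mp hy] at h5
      exact h1 h5
  have h4 := congrArg Complex.re h2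
  simp only [Pi.mul_apply, Complex.mul_conj, Complex.normSq_eq_norm_sq, θ, ite_mul, one_mul,
    zero_mul, ← sum_filter] at h4
  rw [← Complex.ofReal_sum, ← Complex.ofReal_natCast, ← Complex.ofReal_mul, Complex.ofReal_re,
    Complex.re_sum] at h4
  have h5 := classInner_self_re χ
  rw [hχ.classInner_self, Complex.one_re, eq_inv_mul_iff_mul_eq₀
    (Nat.cast_ne_zero.mpr Nat.card_pos.ne'), mul_one, ← index_mul_card N] at h5
  refine lt_of_mul_lt_mul_left (a := (N.index : ℝ)) ?_ (Nat.cast_nonneg _)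
  rw [← h4, ← Nat.cast_mul, h5]
  refine sum_lt_sum (fun g _ => ?_) ⟨1, mem_univ _, ?_⟩
  · rcases h3 g with h | h
    · simp only [θ] at h
      rw [h]; simp
    · simp only [θ] at h
      rw [h.1, one_mul, Complex.ofReal_re]
  · have h := (h3 1).resolve_right fun h => h.2 rfl
    simp only [θ] at h
    rw [h]
    simpa using pow_pos (norm_pos_iff.mpr hχ.apply_one_ne_zero) 2

section FT

variable [Fintype G] (H : Subgroup G) [Fintype H] (hab : ∀ a ∈ H, ∀ b ∈ H, a * b = b * a)
  (hZ : H ⊓ center G = ⊥)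
  (hone : ∀ g : G, g ∉ center G → ∀ a b : G,
    centralizer ({g} : Set G) ⊓ H.map (MulAut.conj a).toMonoidHom ≠ ⊥ →
    centralizer ({g} : Set G) ⊓ H.map (MulAut.conj b).toMonoidHom ≠ ⊥ →
    H.map (MulAut.conj a).toMonoidHom = H.map (MulAut.conj b).toMonoidHom)
include hab hZ hone

theorem feit_thompson_bound {χ : G → ℂ} (hχ : IsIrrCharacter G χ) (hker : ∃ h ∈ H, χ h ≠ χ 1) :
    (Nat.card H : ℝ) * (classInner (fun h : H => χ h) (fun _ => 1)).re ^ 2 < (χ 1).re ^ 2 := by
  classical
  set N := normalizer (H : Set G) with hN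
  have := Fintype.ofFinite N
  have hHZ : ∀ h ∈ H, h ∈ center G → h = 1 := fun h h1 h2 => by
    have : h ∈ H ⊓ center G := ⟨h1, h2⟩
    rwa [hZ] at this
  have key : ∀ x g : G, x ∉ center G → (∃ h ∈ H, h ≠ 1 ∧ h * x = x * h) →
      (∃ h ∈ H, h ≠ 1 ∧ h * (g * x * g⁻¹) = g * x * g⁻¹ * h) → g ∈ N := by
    rintro x g hx ⟨h, h1, h2, h3⟩ ⟨k, k1, k2, k3⟩
    have := hone x hx 1 g⁻¹ (ne_bot_iff_exists_ne_one.mpr
      ⟨⟨h, mem_centralizer_singleton_iff.mpr h3, h, h1, by simp⟩, fun e => h2 (congrArg Subtype.val e)⟩)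
      (ne_bot_iff_exists_ne_one.mpr ⟨⟨g⁻¹ * k * g, mem_centralizer_singleton_iff.mpr (by
        calc g⁻¹ * k * g * x = g⁻¹ * (k * (g * x * g⁻¹)) * g := by group
          _ = x * (g⁻¹ * k * g) := by rw [k3]; group), k, k1, by simp⟩,
        fun e => k2 (by simpa [mul_assoc] using congrArg (g * ·.1 * g⁻¹) e)⟩)
    rw [← inv_mem_iff, hN, H7.mem_normalizer_iff_cj, ← H7.map_conj_eq_cj, ← this,
      H7.map_conj_eq_cj, H7.cj_one]
  set X : Set G := {x | x ∉ center G ∧ ∃ h ∈ H, h ≠ 1 ∧ h * x = x * h} with hX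
  have hlt := index_mul_sum_lt (N := N) (X := X) (fun g hg x hx => by
      obtain ⟨h1, h, h2, h3, h4⟩ := hx
      refine ⟨fun h5 => h1 ?_, g * h * g⁻¹, (mem_normalizer_iff.mp hg h).mp h2, by simpa using h3,
        by rw [conj_mul, h4, conj_mul]⟩
      simpa [mul_assoc] using (inferInstance : (center G).Normal).conj_mem _ h5 g⁻¹)
    (fun g hg x hx h => hg (key x g hx.1 hx.2 h.2)) (fun h => h.1 (one_mem _)) hχ
  let K := H.subgroupOf N
  have := Fintype.ofFinite K
  have hK : Nat.card K = Nat.card H := Nat.card_congr (subgroupOfEquivOfLe le_normalizer).toEquiv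
  let f : N → ℂ := fun x => χ x
  have hf : IsCharacter N f := hχ.isCharacter.restrict N
  set α := kavg K f with hα
  have hαc : IsClassFunction N α := isClassFunction_kavg K hf.isClassFunction
  have h1 : classInner α (f - α) = 0 := by
    rw [classInner_sub_right, hα, classInner_kavg K f (kavg K f), kavg_kavg, classInner_kavg,
      sub_self]
  have h2 : 1 ≤ (classInner (f - α) (f - α)).re := by
    have : ∃ θ : IrrCharacter N, classInner f θ ≠ 0 ∧ ∃ n ∈ K, θ.1 n ≠ θ.1 1 := by
      by_contra! hc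
      obtain ⟨h, hh, hne⟩ := hker
      apply hne
      have e1 := hf.isClassFunction.apply_eq_sum_irr ⟨h, le_normalizer hh⟩
      have e2 := hf.isClassFunction.apply_eq_sum_irr 1
      refine e1.trans (Eq.trans (sum_congr rfl fun θ _ => ?_) e2.symm)
      by_cases h3 : classInner f θ = 0
      · rw [h3, zero_mul, zero_mul]
      · rw [hc θ h3 _ hh]
    obtain ⟨θ, h3, h4⟩ := this
    rw [(hf.isClassFunction.sub hαc).classInner_self_re_eq_sum]
    refine le_trans ?_ (single_le_sum (f := fun θ : IrrCharacter N => ‖classInner (f - α) θ‖ ^ 2)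
      (fun _ _ => sq_nonneg _) (mem_univ θ))
    rw [classInner_sub_left, hα, classInner_kavg, show kavg K θ.1 = 0 from funext fun x => by
      rw [kavg, θ.2.sum_normal_mul_eq_zero K h4, mul_zero]; rfl]
    obtain ⟨m, hm⟩ := hf.exists_classInner_nat θ.2.isCharacter
    rw [hm] at h3 ⊢
    have : (1 : ℝ) ≤ m := by exact_mod_cast Nat.pos_of_ne_zero (Nat.cast_ne_zero.mp h3)
    simp only [classInner, Pi.zero_apply, map_zero, mul_zero, sum_const_zero, sub_zero,
      Complex.norm_natCast]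
    nlinarith
  obtain ⟨c, hc⟩ := (hχ.isCharacter.restrict H).exists_classInner_nat isCharacter_one
  have h3 : α 1 = c := by
    rw [← hc, classInner_one_right, hα, kavg, hK,
      ← Equiv.sum_comp (subgroupOfEquivOfLe (le_normalizer (H := H))).toEquiv]
    simp only [f, mul_one]
    rfl
  obtain ⟨n, hn, h4⟩ := hχ.exists_apply_one
  have hZN : center G ≤ N := (center_le_centralizer _).trans (centralizer_le_normalizer _)
  have h5 : ∀ z : center G, ‖χ z‖ = n ∧ ‖α ⟨z, hZN z.2⟩‖ = c := fun z => by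
    obtain ⟨l, hl, h5⟩ := hχ.center_le_charCenter z.2
    constructor
    · have := h5 1
      rw [mul_one] at this
      rw [this, h4, norm_mul, hl, one_mul, Complex.norm_natCast]
    · have : α ⟨z, hZN z.2⟩ = l * α 1 := by
        rw [hα, kavg, kavg, mul_left_comm, mul_sum _ _ l]
        congr 1
        refine sum_congr rfl fun h _ => ?_
        simp only [f, Subgroup.coe_mul, mul_one]
        rw [← h5, mem_center_iff.mp z.2]
      rw [this, h3, norm_mul, hl, one_mul, Complex.norm_natCast]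
  let Y : Finset N := univ.filter fun x => (x : G) ∈ X ∨ (x : G) ∈ center G
  have h6 : ∀ x, x ∉ Y → (f - α) x = 0 := fun x hx => by
    simp only [Y, mem_filter, mem_univ, true_and, not_or, hX, Set.mem_ofPred_eq, not_and] at hx
    rw [Pi.sub_apply, hα, kavg_of_fpf K hf.isClassFunction, sub_self]
    intro m hm hmx
    by_contra h7
    exact hx.1 hx.2 ⟨m, hm, fun h => h7 (Subtype.ext h), congrArg Subtype.val hmx⟩
  have h7 : ∑ x ∈ Y, ‖f x‖ ^ 2 = ∑ x ∈ Y, ‖α x‖ ^ 2 + ∑ x, ‖(f - α) x‖ ^ 2 := by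
    have e1 := card_mul_classInner α (f - α)
    rw [h1, mul_zero, ← sum_subset (subset_univ Y) (fun x _ hx => by simp [h6 x hx])] at e1
    have e2 := congrArg Complex.re e1
    rw [Complex.re_sum, Complex.zero_re] at e2
    rw [← sum_subset (subset_univ Y) (fun x _ hx => by simp [h6 x hx]), ← sum_add_distrib,
      ← add_zero (∑ x ∈ Y, (‖α x‖ ^ 2 + _)), ← mul_zero 2, e2, mul_sum, ← sum_add_distrib]
    refine sum_congr rfl fun x _ => ?_
    rw [← Complex.normSq_eq_norm_sq, ← Complex.normSq_eq_norm_sq, ← Complex.normSq_eq_norm_sq,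
      ← Complex.normSq_add]
    simp
  have h8 : (Nat.card N : ℝ) ≤ ∑ x, ‖(f - α) x‖ ^ 2 := by
    rw [classInner_self_re, le_inv_mul_iff₀ (Nat.cast_pos.mpr Nat.card_pos), mul_one] at h2
    exact h2
  have := Fintype.ofFinite (center G)
  have h9 : ∑ x ∈ Y, ‖f x‖ ^ 2 = ∑ x ∈ univ.filter (fun x : N => (x : G) ∈ X), ‖χ x‖ ^ 2 +
      Nat.card (center G) * n ^ 2 := by
    rw [show Y = univ.filter (fun x : N => (x : G) ∈ X) ∪
      univ.filter (fun x : N => (x : G) ∈ center G) from filter_or _ _ _,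
      sum_union (disjoint_filter.mpr fun x _ h1 h2 => h1.1 h2)]
    congr 1
    rw [sum_congr rfl (g := fun _ => (n : ℝ) ^ 2) (fun x hx => by
      rw [← (h5 ⟨x, (mem_filter.mp hx).2⟩).1]), sum_const, nsmul_eq_mul,
      ← natCard_eq_card_filter (fun x : N => (x : G) ∈ center G)]
    congr 2
    exact Nat.card_congr (subgroupOfEquivOfLe hZN).toEquiv
  have h10 : (Nat.card (center G) : ℝ) * Nat.card H * c ^ 2 ≤ ∑ x ∈ Y, ‖α x‖ ^ 2 := by
    let φ : center G × H → N := fun p => ⟨p.2, le_normalizer p.2.2⟩ * ⟨p.1, hZN p.1.2⟩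
    have hφ : Function.Injective φ := by
      rintro ⟨z, h⟩ ⟨z', h'⟩ e
      have e1 : (h : G) * z = h' * z' := congrArg Subtype.val e
      have e2 : (h' : G)⁻¹ * h = z' * (z : G)⁻¹ := by
        rw [inv_mul_eq_iff_eq_mul, ← mul_assoc, eq_mul_inv_iff_mul_eq, e1]
      have e3 := hHZ _ (mul_mem (inv_mem h'.2) h.2) (e2 ▸ mul_mem z'.2 (inv_mem z.2))
      rw [e3, eq_comm, mul_inv_eq_one] at e2
      rw [inv_mul_eq_one] at e3
      exact Prod.ext (Subtype.ext e2.symm) (Subtype.ext e3.symm)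
    refine le_trans (le_of_eq ?_) (sum_le_sum_of_subset_of_nonneg (s := univ.map ⟨φ, hφ⟩)
      (fun x hx => ?_) fun _ _ _ => sq_nonneg _)
    · rw [sum_map, sum_congr rfl (g := fun _ => (c : ℝ) ^ 2) (fun p _ => by
        simp only [Function.Embedding.coeFn_mk, φ]
        rw [hα, kavg_mul K f (show _ ∈ K from p.2.2), ← hα, (h5 p.1).2]), sum_const, card_univ,
        Fintype.card_prod, nsmul_eq_mul, ← Nat.card_eq_fintype_card, ← Nat.card_eq_fintype_card]
      push_cast
      ring
    · obtain ⟨⟨z, h⟩, -, rfl⟩ := mem_map.mp hx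
      simp only [Y, mem_filter, mem_univ, true_and, Function.Embedding.coeFn_mk, φ,
        Subgroup.coe_mul]
      by_cases h11 : (h : G) * z ∈ center G
      · exact Or.inr h11
      · refine Or.inl ⟨h11, h, h.2, ?_, ?_⟩
        · intro h12
          exact h11 (by rw [h12, one_mul]; exact z.2)
        · rw [mul_assoc, mem_center_iff.mp z.2]
  rw [hc, h4, Complex.natCast_re, Complex.natCast_re]
  refine lt_of_mul_lt_mul_left (a := (Nat.card (center G) : ℝ)) ?_ (Nat.cast_nonneg _)
  linarith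

theorem feit_thompson_bound' {χ : G → ℂ} (hχ : IsIrrCharacter G χ) (h1 : χ 1 ≠ 1)
    (hM : ∀ M : Subgroup G, M.Normal → H ≤ M → M = ⊤) :
    (Nat.card H : ℝ) < (1 + (χ 1).re) ^ 2 := by
  classical
  obtain ⟨n, hn, h2⟩ := hχ.exists_apply_one
  have hn1 : (1 : ℝ) < n := by
    have : n ≠ 1 := by rintro rfl; exact h1 (by simp [h2])
    exact_mod_cast (by omega : 1 < n)
  have hp := hχ.isCharacter.mul hχ.conj.isCharacter
  obtain ⟨a, ha, -⟩ := hp.exists_classInner_self_eq_sum
  choose c hc using fun ψ : IrrCharacter G =>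
    (ψ.2.isCharacter.restrict H).exists_classInner_nat isCharacter_one
  choose d hd0 hd using fun ψ : IrrCharacter G => ψ.2.exists_apply_one
  let o : IrrCharacter G := ⟨_, isIrrCharacter_one⟩
  have ha1 : a o = 1 := by
    have := ha o
    rw [classInner_mul_left] at this
    simp only [o, Complex.conj_conj, show ((fun _ => 1 : G → ℂ) * fun g => χ g) = χ from one_mul χ,
      hχ.classInner_self] at this
    exact_mod_cast this.symm
  set s := Real.sqrt (Nat.card H) with hs
  have hs0 : 0 < s := Real.sqrt_pos.mpr (Nat.cast_pos.mpr Nat.card_pos)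
  have hcd : ∀ ψ : IrrCharacter G, ψ ≠ o → s * c ψ < d ψ := fun ψ hψ => by
    have := feit_thompson_bound H hab hZ hone ψ.2 (by
      by_contra! h3
      have h4 := hM _ ψ.2.isCharacter.charKer_normal fun h hh =>
        ψ.2.isCharacter.mem_charKer.mpr (h3 h hh)
      have h5 : ∀ g, ψ.1 g = ψ.1 1 := fun g => ψ.2.isCharacter.mem_charKer.mp (h4 ▸ mem_top g)
      have h6 := ψ.2.apply_one_eq_one_of_commutator fun g _ => h5 g
      exact hψ (Subtype.ext (funext fun g => (h5 g).trans h6)))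
    rw [hc, hd, Complex.natCast_re, Complex.natCast_re] at this
    refine lt_of_pow_lt_pow_left₀ 2 (Nat.cast_nonneg _) ?_
    rwa [mul_pow, hs, Real.sq_sqrt (Nat.cast_nonneg _)]
  have e1 : ∑ ψ, (a ψ : ℝ) * d ψ = n ^ 2 := by
    have := hp.isClassFunction.apply_eq_sum_irr 1
    simp only [ha, hd, Pi.mul_apply, h2, map_natCast] at this
    rw [sq]
    exact_mod_cast this.symm
  have e2 : (n : ℝ) ≤ ∑ ψ, (a ψ : ℝ) * c ψ := by
    have hr := hχ.isCharacter.restrict H
    obtain ⟨m, hm, e3⟩ := hr.exists_classInner_self_eq_sum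
    have e4 := hr.isClassFunction.apply_eq_sum_irr 1
    simp only [hm, fun θ : IrrCharacter H => θ.2.apply_one_eq_one_of_comm
      fun x y => Subtype.ext (hab x x.2 y y.2), OneMemClass.coe_one, h2, mul_one] at e4
    have e5 : classInner (fun h : H => χ h) (fun h : H => χ h) = ∑ ψ, (a ψ : ℂ) * c ψ := by
      have : classInner (fun h : H => χ h) (fun h : H => χ h) =
          classInner (∑ ψ : IrrCharacter G, (a ψ : ℂ) • fun h : H => ψ.1 h) (fun _ => 1) := by
        rw [classInner_one_right, classInner]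
        congr 1
        refine sum_congr rfl fun h _ => ?_
        have := hp.isClassFunction.apply_eq_sum_irr h
        simp only [ha, Pi.mul_apply] at this
        simp [this]
      rw [this, classInner_sum_left]
      simp only [classInner_smul_left, hc]
    rw [e3] at e5
    have e6 : n = ∑ θ, m θ := by exact_mod_cast e4
    have e7 : ∑ θ, m θ ^ 2 = ∑ ψ, a ψ * c ψ := by exact_mod_cast e5
    have : n ≤ ∑ ψ, a ψ * c ψ := by
      rw [e6, ← e7]
      exact sum_le_sum fun θ _ => Nat.le_self_pow two_ne_zero _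
    exact_mod_cast this
  have hc1 : c o = 1 := by
    have := hc o
    simp only [o, classInner_one_one] at this
    exact_mod_cast this.symm
  have hd1 : d o = 1 := by
    have : ((d o : ℕ) : ℂ) = 1 := (hd o).symm
    exact_mod_cast this
  rw [← add_sum_erase _ _ (mem_univ o), ha1] at e1 e2
  rw [hd1, Nat.cast_one, one_mul] at e1
  rw [hc1, Nat.cast_one, one_mul] at e2
  have e8 : s * ∑ ψ ∈ univ.erase o, (a ψ : ℝ) * c ψ < ∑ ψ ∈ univ.erase o, (a ψ : ℝ) * d ψ := by
    rw [mul_sum]
    refine sum_lt_sum (fun ψ hψ => ?_) ?_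
    · rw [mul_left_comm]
      exact mul_le_mul_of_nonneg_left (hcd ψ (ne_of_mem_erase hψ)).le (Nat.cast_nonneg _)
    · by_contra! h3
      have : ∑ ψ ∈ univ.erase o, (a ψ : ℝ) * d ψ = 0 := sum_eq_zero fun ψ hψ => by
        have h4 := h3 ψ hψ
        have h5 := hcd ψ (ne_of_mem_erase hψ)
        rcases Nat.eq_zero_or_pos (a ψ) with h6 | h6
        · simp [h6]
        · have : (0 : ℝ) < a ψ := by exact_mod_cast h6
          nlinarith
      rw [this] at e1
      nlinarith
  rw [h2, Complex.natCast_re, ← Real.sq_sqrt (Nat.cast_nonneg (Nat.card H)), ← hs]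
  refine pow_lt_pow_left₀ ?_ hs0.le two_ne_zero
  by_contra! h3
  have := mul_le_mul h3 (show (n : ℝ) - 1 ≤ ∑ ψ ∈ univ.erase o, (a ψ : ℝ) * c ψ by linarith)
    (by linarith) hs0.le
  nlinarith

end FT

end H4

end Cfsg
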