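import Cfsg.Agent.H1.Frattini
import Cfsg.Prelude.Def_Transfer

/-!
# Twisted real group algebras of quadratic spaces over `ZMod 2`
-/

set_option autoImplicit false
set_option linter.dupNamespace false

open scoped commutatorElement
open Subgroup Finset Module

namespace Cfsg.H4

universe u v

theorem zmod2_cases (a : ZMod 2) : a = 0 ∨ a = 1 := by revert a; decide

/-- The sign `(-1) ^ t`. -/
noncomputable def sgn2 (t : ZMod 2) : ℝ := if t = 0 then 1 else -1

@[simp] theorem sgn2_zero : sgn2 0 = 1 := if_pos rfl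

@[simp] theorem sgn2_one : sgn2 1 = -1 := if_neg one_ne_zero

theorem sgn2_add (a b : ZMod 2) : sgn2 (a + b) = sgn2 a * sgn2 b := by
  rcases zmod2_cases a with rfl | rfl <;> rcases zmod2_cases b with rfl | rfl <;>
    simp [CharTwo.add_self_eq_zero]

@[simp] theorem sgn2_mul_self (a : ZMod 2) : sgn2 a * sgn2 a = 1 := by
  rw [← sgn2_add, CharTwo.add_self_eq_zero, sgn2_zero]

theorem sgn2_ne_zero (a : ZMod 2) : sgn2 a ≠ 0 := left_ne_zero_of_mul_eq_one (sgn2_mul_self a)

theorem sgn2_injective : Function.Injective sgn2 := fun a b h => by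
  rcases zmod2_cases a with rfl | rfl <;> rcases zmod2_cases b with rfl | rfl <;>
    simp at h ⊢ <;> norm_num at h

variable {U : Type u} [AddCommGroup U] [Module (ZMod 2) U]

theorem add_self_zmod2 (u : U) : u + u = 0 := by
  rw [← two_smul (ZMod 2) u, show (2 : ZMod 2) = 0 from rfl, zero_smul]

theorem exists_twisted_algebra [Finite U] (β : U →ₗ[ZMod 2] U →ₗ[ZMod 2] ZMod 2) :
    ∃ (A : Type) (_ : Ring A) (_ : Algebra ℝ A) (b : Basis U ℝ A), b 0 = 1 ∧
      ∀ u v, b u * b v = sgn2 (β u v) • b (u + v) := by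
  classical
  obtain ⟨N, ⟨ι⟩⟩ := Finite.exists_equiv_fin U
  let e : U → Module.End ℝ (Fin N → ℝ) := fun u =>
    { toFun := fun f i => sgn2 (β u (ι.symm i + u)) * f (ι (ι.symm i + u))
      map_add' := fun f g => by ext; simp [mul_add]
      map_smul' := fun c f => by ext; simp [mul_left_comm] }
  have h0 : e 0 = 1 := LinearMap.ext fun f => by ext; simp [e]
  have hm : ∀ u v, e u * e v = sgn2 (β u v) • e (u + v) := fun u v => LinearMap.ext fun f => by
    ext i
    simp only [e, Module.End.mul_apply, LinearMap.coe_mk, AddHom.coe_mk, Equiv.symm_apply_apply,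
      LinearMap.smul_apply, Pi.smul_apply, smul_eq_mul, ← mul_assoc, ← sgn2_add, add_assoc]
    congr 2
    simp only [map_add, LinearMap.add_apply]
    linear_combination -CharTwo.add_self_eq_zero (β u v)
  have hli : LinearIndependent ℝ e := by
    refine LinearIndependent.of_comp (LinearMap.applyₗ (Pi.single (ι 0) 1)) ?_
    convert (Pi.basisFun ℝ (Fin N)).linearIndependent.comp ι ι.injective using 1
    ext u i
    by_cases h : i = ι u
    · simp [e, h, add_self_zmod2]
    · have : ι.symm i + u ≠ 0 := fun h2 => h (by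
        rw [← add_self_zmod2 u, add_left_inj] at h2
        rw [← h2, Equiv.apply_symm_apply])
      simp [e, h, this]
  let A : Subalgebra ℝ (Module.End ℝ (Fin N → ℝ)) := (Submodule.span ℝ (Set.range e)).toSubalgebra
    (h0 ▸ Submodule.subset_span ⟨0, rfl⟩) (fun x y hx hy => by
      have := Submodule.mul_mem_mul hx hy
      rw [Submodule.span_mul_span] at this
      refine Submodule.span_le.mpr ?_ this
      rintro _ ⟨_, ⟨u, rfl⟩, _, ⟨v, rfl⟩, rfl⟩
      simp only [hm]
      exact Submodule.smul_mem _ _ (Submodule.subset_span ⟨_, rfl⟩))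
  let b : Basis U ℝ A := Basis.span hli
  have hb : ∀ u, (b u : Module.End ℝ (Fin N → ℝ)) = e u := fun u => congrArg Subtype.val (Basis.span_apply hli u)
  exact ⟨A, inferInstance, inferInstance, b, Subtype.ext (by rw [hb, h0]; rfl),
    fun u v => Subtype.ext (by simp [hb, hm])⟩

theorem exists_quad_of_alt [Finite U] (γ : U →ₗ[ZMod 2] U →ₗ[ZMod 2] ZMod 2)
    (h : ∀ u, γ u u = 0) : ∃ σ : U → ZMod 2, ∀ u v, σ (u + v) = σ u + σ v + γ u v := by
  have : Module.Finite (ZMod 2) U := Module.Finite.of_finite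
  let c := Module.finBasis (ZMod 2) U
  let δ : U →ₗ[ZMod 2] U →ₗ[ZMod 2] ZMod 2 := c.constr (ZMod 2) fun i => c.constr (ZMod 2) fun j =>
    if i < j then γ (c i) (c j) else 0
  have h2 : ∀ u v, γ u v = γ v u := fun u v => by
    have := h (u + v)
    simp only [map_add, LinearMap.add_apply, h] at this
    linear_combination this - CharTwo.add_self_eq_zero (γ v u)
  have h3 : δ + δ.flip = γ := c.ext fun i => c.ext fun j => by
    simp only [δ, LinearMap.add_apply, LinearMap.flip_apply, Basis.constr_basis]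
    rcases lt_trichotomy i j with h4 | rfl | h4
    · simp [h4, h4.not_gt]
    · simp [h]
    · simp [h4, h4.not_gt, h2 (c i)]
  refine ⟨fun u => δ u u, fun u v => ?_⟩
  simp only [← h3, map_add, LinearMap.add_apply, LinearMap.flip_apply]
  ring

theorem extraspecial_of_equiv [Finite U] [Nontrivial U] (β : U →ₗ[ZMod 2] U →ₗ[ZMod 2] ZMod 2)
    (hnd : ∀ u, (∀ v, β u v + β v u = 0) → u = 0) {Q : Type v} [Group Q] (j : U × ZMod 2 ≃ Q)
    (hj : ∀ x y, j x * j y = j (x.1 + y.1, x.2 + y.2 + β x.1 y.1)) :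
    ∃ χ : Q →* Multiplicative U, (∀ x, χ (j x) = Multiplicative.ofAdd x.1) ∧ IsExtraspecial 2 Q ∧
      χ.ker = center Q ∧ ∀ a, a * a = 1 ↔ β (χ a).toAdd (χ a).toAdd = 0 := by
  have : Finite Q := Finite.of_equiv _ j
  have h1 : j (0, 0) = 1 := by
    have := hj (0, 0) (0, 0)
    simpa using this
  let χ : Q →* Multiplicative U := MonoidHom.mk' (fun a => Multiplicative.ofAdd (j.symm a).1)
    fun a a' => by
      obtain ⟨x, rfl⟩ := j.surjective a
      obtain ⟨y, rfl⟩ := j.surjective a'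
      simp [hj]
  have hχ : ∀ x, χ (j x) = Multiplicative.ofAdd x.1 := fun x => by simp [χ]
  have hk : χ.ker = center Q := by
    ext a
    obtain ⟨x, rfl⟩ := j.surjective a
    rw [MonoidHom.mem_ker, hχ, mem_center_iff, ofAdd_eq_one]
    refine ⟨fun h b => ?_, fun h => hnd _ fun v => ?_⟩
    · obtain ⟨y, rfl⟩ := j.surjective b
      simp [hj, h, add_comm]
    · have := h (j (v, 0))
      simp only [hj, EmbeddingLike.apply_eq_iff_eq, Prod.mk.injEq] at this
      linear_combination this.2 + CharTwo.add_self_eq_zero (β x.1 v)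
  have hsq : ∀ x, j x * j x = j (0, β x.1 x.1) := fun x => by
    rw [hj, add_self_zmod2, CharTwo.add_self_eq_zero, zero_add]
  have hmem : ∀ t, j (0, t) ∈ center Q := fun t => hk ▸ hχ _
  have hZ : Nat.card (center Q) = 2 := by
    rw [← Nat.card_zmod 2]
    refine (Nat.card_eq_of_bijective (fun t => (⟨_, hmem t⟩ : center Q)) ⟨fun t t' h => ?_, ?_⟩).symm
    · simpa using h
    · rintro ⟨a, ha⟩
      obtain ⟨x, rfl⟩ := j.surjective a
      rw [← hk, MonoidHom.mem_ker, hχ, ofAdd_eq_one] at ha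
      exact ⟨x.2, Subtype.ext (congrArg j (Prod.ext ha.symm rfl))⟩
  have hp : IsPGroup 2 Q := fun a => ⟨2, by
    obtain ⟨x, rfl⟩ := j.surjective a
    rw [sq, pow_mul, sq, sq, hsq, hsq, map_zero, h1]⟩
  have hc1 : commutator Q ≤ center Q := hk ▸ Abelianization.commutator_subset_ker χ
  have hc : commutator Q = center Q := by
    obtain ⟨u, hu⟩ := exists_ne (0 : U)
    have h2 : j (u, 0) ∉ center Q := by rwa [← hk, MonoidHom.mem_ker, hχ, ofAdd_eq_one]
    refine eq_of_le_of_card_ge hc1 ?_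
    rw [hZ]
    refine (one_lt_card_iff_ne_bot _).mpr fun h => h2 (mem_center_iff.mpr fun g => ?_)
    rw [← commutatorElement_eq_one_iff_mul_comm, ← Subgroup.mem_bot, ← h]
    exact commutator_mem_commutator (mem_top _) (mem_top _)
  refine ⟨χ, hχ, ⟨⟨hp, le_antisymm ((H1.frattini_le_iff_of_isPGroup hp).mpr ⟨hc1, fun a => ?_⟩) ?_,
    hc⟩, hZ⟩, hk, fun a => ?_⟩
  · obtain ⟨x, rfl⟩ := j.surjective a
    rw [sq, hsq]
    exact hmem _
  · have := hp.isNilpotent
    exact hc ▸ H1.commutator_le_frattini_of_isNilpotent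
  · obtain ⟨x, rfl⟩ := j.surjective a
    simp [hsq, hχ, ← h1]

section Twisted

variable {β : U →ₗ[ZMod 2] U →ₗ[ZMod 2] ZMod 2} {A : Type} [Ring A] [Algebra ℝ A]
  {b : Basis U ℝ A} (hb0 : b 0 = 1) (hb : ∀ u v, b u * b v = sgn2 (β u v) • b (u + v))
include hb0 hb

theorem tw_mul_inv (u : U) : b u * sgn2 (β u u) • b u = 1 := by
  rw [mul_smul_comm, hb, smul_smul, sgn2_mul_self, add_self_zmod2, hb0, one_smul]

theorem tw_inv_mul (u : U) : sgn2 (β u u) • b u * b u = 1 := by
  rw [smul_mul_assoc, hb, smul_smul, sgn2_mul_self, add_self_zmod2, hb0, one_smul]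

omit hb0 in
theorem tw_coord {x : A} (hx : x ≠ 0) : ∃ v, b.repr (b v * x) 0 ≠ 0 := by
  classical
  obtain ⟨v, hv⟩ := Finsupp.ne_iff.mp (b.repr.map_ne_zero_iff.mpr hx)
  refine ⟨v, ?_⟩
  have : (b.coord 0).comp (LinearMap.mulLeft ℝ (b v)) = sgn2 (β v v) • b.coord v :=
    b.ext fun w => by
      by_cases h : w = v
      · simp [hb, h, add_self_zmod2]
      · have : v + w ≠ 0 := fun h2 => h (by rwa [← add_self_zmod2 v, add_right_inj] at h2)
        simp [hb, h, this]
  have h2 := LinearMap.congr_fun this x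
  simp only [LinearMap.comp_apply, LinearMap.mulLeft_apply, Basis.coord_apply, LinearMap.smul_apply,
    smul_eq_mul] at h2
  exact h2 ▸ mul_ne_zero (sgn2_ne_zero _) hv

variable [Fintype U] (hnd : ∀ u, (∀ v, β u v + β v u = 0) → u = 0)
include hnd

theorem tw_avg (x : A) :
    ∑ v, b v * x * sgn2 (β v v) • b v = (Fintype.card U * b.repr x 0 : ℝ) • 1 := by
  classical
  have : ∑ v, (LinearMap.mulRight ℝ (sgn2 (β v v) • b v)).comp (LinearMap.mulLeft ℝ (b v)) =
      ((Fintype.card U : ℝ) • b.coord 0).smulRight 1 := b.ext fun w => by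
    have h1 : ∀ v, b v * b w * sgn2 (β v v) • b v = sgn2 (β w v + β v w) • b w := fun v => by
      have : b v * b w = sgn2 (β w v + β v w) • (b w * b v) := by
        rw [hb, hb, smul_smul, ← sgn2_add, add_comm w v]
        congr 2
        linear_combination -CharTwo.add_self_eq_zero (β w v)
      rw [this, smul_mul_assoc, mul_assoc, tw_mul_inv hb0 hb, mul_one]
    simp only [LinearMap.sum_apply, LinearMap.comp_apply, LinearMap.mulLeft_apply,
      LinearMap.mulRight_apply, h1, ← sum_smul]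
    by_cases h : w = 0
    · simp [h, ← hb0]
    · obtain ⟨v, hv⟩ := not_forall.mp (mt (hnd w) h)
      have h2 := Equiv.sum_comp (Equiv.addRight v) fun v => sgn2 (β w v + β v w)
      simp only [Equiv.coe_addRight, map_add, LinearMap.add_apply] at h2
      rw [sum_congr rfl (g := fun x => -sgn2 (β w x + β x w)) fun x _ => by
        rw [add_add_add_comm, sgn2_add, (zmod2_cases _).resolve_left hv, sgn2_one, mul_neg_one],
        sum_neg_distrib, neg_eq_self] at h2
      simp [h2, h]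
  simpa using LinearMap.congr_fun this x

theorem tw_scalar {T : A} (hT : T ≠ 0) (h : ∀ u, ∃ t, T * b u = sgn2 t • (b u * T)) :
    ∃ (c : ℝ) (v : U), T = c • b v := by
  obtain ⟨v, hv⟩ := tw_coord hb hT
  have h1 : ∀ u, ∃ c : ℝ, b u * (b v * T) * sgn2 (β u u) • b u = c • (b v * T) := fun u => by
    obtain ⟨t, ht⟩ := h u
    refine ⟨sgn2 t * (sgn2 (β u v) * sgn2 (β v u)), ?_⟩
    have h2 : b u * b v * b u = (sgn2 (β u u) * (sgn2 (β u v) * sgn2 (β v u))) • b v := by
      rw [hb, smul_mul_assoc, hb, smul_smul, add_comm u v, add_assoc, add_self_zmod2, add_zero,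
        map_add, LinearMap.add_apply, sgn2_add]
      congr 1
      ring
    rw [mul_smul_comm, mul_assoc, mul_assoc, ht, mul_smul_comm, mul_smul_comm, ← mul_assoc,
      ← mul_assoc, h2, smul_mul_assoc, smul_smul, smul_smul]
    congr 1
    linear_combination (sgn2 t * (sgn2 (β u v) * sgn2 (β v u))) * sgn2_mul_self (β u u)
  choose c hc using h1
  have h2 := tw_avg hb0 hb hnd (b v * T)
  simp only [hc, ← sum_smul] at h2
  have h3 : (Fintype.card U * b.repr (b v * T) 0 : ℝ) ≠ 0 :=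
    mul_ne_zero (Nat.cast_ne_zero.mpr Fintype.card_ne_zero) hv
  have h4 : ∑ u, c u ≠ 0 := fun h => by
    rw [h, zero_smul, eq_comm, ← hb0, smul_eq_zero] at h2
    exact h2.elim h3 (b.ne_zero 0)
  refine ⟨(∑ u, c u)⁻¹ * (Fintype.card U * b.repr (b v * T) 0) * sgn2 (β v v), v, ?_⟩
  rw [mul_smul, mul_smul, ← mul_one (sgn2 (β v v) • b v), ← mul_smul_comm, ← h2, mul_smul_comm,
    smul_smul, inv_mul_cancel₀ h4, one_smul, ← mul_assoc, tw_inv_mul hb0 hb, one_mul]

theorem tw_lift (g : U →ₗ[ZMod 2] U) (hg : ∀ u, β (g u) (g u) = β u u) :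
    ∃ T : Aˣ, |Algebra.norm ℝ (T : A)| = 1 ∧ ∀ u, ∃ t, T * b u = sgn2 t • (b (g u) * T) := by
  classical
  have : Module.Finite ℝ A := Module.Finite.of_basis b
  have : Module.Free ℝ A := Module.Free.of_basis b
  obtain ⟨σ, hσ⟩ := exists_quad_of_alt (β.compl₁₂ g g + β) fun u => by
    simp [hg, CharTwo.add_self_eq_zero]
  simp only [LinearMap.add_apply, LinearMap.compl₁₂_apply] at hσ
  let a : U → A := fun u => sgn2 (σ u) • b (g u)
  have ha : ∀ u v, a u * a v = sgn2 (β u v) • a (u + v) := fun u v => by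
    simp only [a, smul_mul_smul_comm, hb, smul_smul, ← sgn2_add, hσ, map_add g]
    congr 2
    linear_combination -CharTwo.add_self_eq_zero (β u v)
  let T : A → A := fun x => ∑ u, a u * x * sgn2 (β u u) • b u
  have hT : ∀ x w, T x * b w = a w * T x := fun x w => by
    simp only [T, sum_mul, mul_sum]
    rw [← Equiv.sum_comp (Equiv.addLeft w)]
    clear_value a
    refine sum_congr rfl fun u _ => ?_
    simp only [Equiv.coe_addLeft, ← mul_assoc, ha]
    rw [mul_assoc, smul_mul_assoc, hb, smul_smul, smul_mul_assoc, smul_mul_assoc, mul_smul_comm,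
      mul_smul_comm, smul_smul, ← sgn2_add, ← sgn2_add, add_comm w u, add_assoc, add_self_zmod2,
      add_zero]
    congr 2
    simp only [map_add, LinearMap.add_apply]
    linear_combination CharTwo.add_self_eq_zero (β u w) + CharTwo.add_self_eq_zero (β w w)
  have hcard : (Fintype.card U : ℝ) ≠ 0 := Nat.cast_ne_zero.mpr Fintype.card_ne_zero
  obtain ⟨x, hx⟩ : ∃ x, T x ≠ 0 := by
    by_contra! hc
    have h1 : ∑ v, T (b v) * sgn2 (β v v) • b v = 0 := by simp [hc]
    simp only [T, sum_mul] at h1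
    rw [sum_comm] at h1
    simp only [mul_assoc (a _), ← mul_sum, tw_avg hb0 hb hnd] at h1
    rw [sum_eq_single 0 (fun u _ hu => by simp [hu]) (by simp)] at h1
    simp [a, sgn2_ne_zero, b.ne_zero] at h1
  have hu : IsUnit (T x) := by
    refine Algebra.lmul_isUnit_iff.mp ((LinearMap.isUnit_iff_ker_eq_bot (Algebra.lmul ℝ A (T x))).mpr
      (LinearMap.ker_eq_bot'.mpr fun y hy => ?_))
    have hy : T x * y = 0 := hy
    by_contra hy0
    obtain ⟨v, hv⟩ := tw_coord hb hy0
    have h1 := congrArg (T x * ·) (tw_avg hb0 hb hnd (b v * y))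
    have h2 : ∀ u, T x * (b u * (b v * y) * sgn2 (β u u) • b u) = 0 := fun u => by
      rw [← mul_assoc, ← mul_assoc, ← mul_assoc, hT, mul_assoc (a u), hT, mul_assoc (a u),
        mul_assoc (a v), hy, mul_zero, mul_zero, zero_mul]
    simp only [mul_sum, h2, sum_const_zero] at h1
    rw [mul_smul_comm, mul_one] at h1
    exact smul_ne_zero (mul_ne_zero hcard hv) hx h1.symm
  have hn : 0 < |Algebra.norm ℝ (T x)| := abs_pos.mpr (hu.map _).ne_zero
  have hd : finrank ℝ A ≠ 0 := by rw [finrank_eq_card_basis b]; exact Fintype.card_ne_zero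
  obtain ⟨c, hc0, hc⟩ : ∃ c : ℝ, 0 < c ∧ c ^ finrank ℝ A = |Algebra.norm ℝ (T x)|⁻¹ :=
    ⟨_, Real.rpow_pos_of_pos (inv_pos.mpr hn) _, Real.rpow_inv_natCast_pow (inv_pos.mpr hn).le hd⟩
  refine ⟨Units.mk0 c hc0.ne' • hu.unit, ?_, fun u => ⟨σ u, ?_⟩⟩
  · simp only [Units.val_smul, Units.smul_def, Units.val_mk0, IsUnit.unit_spec]
    rw [Algebra.smul_def, map_mul, Algebra.norm_algebraMap, abs_mul, hc, abs_inv, abs_abs,
      inv_mul_cancel₀ hn.ne']
  · simp only [Units.val_smul, Units.smul_def, Units.val_mk0, IsUnit.unit_spec]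
    rw [smul_mul_assoc, hT, mul_smul_comm, smul_comm, smul_mul_assoc]

theorem tw_group {K : Type v} [Group K] [Nontrivial U] (ρ : Representation (ZMod 2) K U)
    (hρ : Function.Injective ρ) (hq : ∀ k u, β (ρ k u) (ρ k u) = β u u) :
    ∃ (R : Type) (_ : Group R) (π : R →* K) (j : U × ZMod 2 ≃ π.ker), Function.Surjective π ∧
      (∀ x y, j x * j y = j (x.1 + y.1, x.2 + y.2 + β x.1 y.1)) ∧
      ∀ (r : R) (x : U × ZMod 2), ∃ t, r * j x * r⁻¹ = j (ρ (π r) x.1, t) := by
  classical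
  have : Module.Finite ℝ A := Module.Finite.of_basis b
  have : Module.Free ℝ A := Module.Free.of_basis b
  have hd : finrank ℝ A ≠ 0 := by rw [finrank_eq_card_basis b]; exact Fintype.card_ne_zero
  have hinj : ∀ {u v t t'}, sgn2 t • b u = sgn2 t' • b v → u = v ∧ t = t' := fun {u v t t'} h => by
    have h1 := congrArg (fun x => b.repr x u) h
    by_cases h2 : u = v
    · exact ⟨h2, sgn2_injective (by simpa [h2] using h1)⟩
    · simp [Ne.symm h2, sgn2_ne_zero] at h1
  let Rel : Aˣ → K → Prop := fun T k => ∀ u, ∃ t, T * b u = sgn2 t • (b (ρ k u) * T)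
  have hmul : ∀ {T T' k k'}, Rel T k → Rel T' k' → Rel (T * T') (k * k') :=
    fun {T T' k k'} h h' u => by
      obtain ⟨t', ht'⟩ := h' u
      obtain ⟨t, ht⟩ := h (ρ k' u)
      refine ⟨t' + t, ?_⟩
      rw [Units.val_mul, mul_assoc, ht', mul_smul_comm, ← mul_assoc, ht, smul_mul_assoc, smul_smul,
        sgn2_add, map_mul, Module.End.mul_apply, mul_assoc]
  have huniq : ∀ {T k k'}, Rel T k → Rel T k' → k = k' := fun {T k k'} h h' =>
    hρ (LinearMap.ext fun u => by
      obtain ⟨t', ht'⟩ := h' u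
      obtain ⟨t, ht⟩ := h u
      rw [ht, ← smul_mul_assoc, ← smul_mul_assoc, Units.mul_left_inj] at ht'
      exact (hinj ht').1)
  let R : Subgroup Aˣ :=
    { carrier := {T | |Algebra.norm ℝ (T : A)| = 1 ∧ ∃ k, Rel T k}
      one_mem' := ⟨by simp, 1, fun u => ⟨0, by simp⟩⟩
      mul_mem' := fun ⟨h1, _, h2⟩ ⟨h3, _, h4⟩ =>
        ⟨by rw [Units.val_mul, map_mul, abs_mul, h1, h3, one_mul], _, hmul h2 h4⟩
      inv_mem' := fun {T} ⟨h1, k, h2⟩ => ⟨by
        rw [← one_mul |_|, ← h1, ← abs_mul, ← map_mul, Units.mul_inv, map_one, abs_one, h1], k⁻¹,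
        fun u => by
          obtain ⟨t, ht⟩ := h2 (ρ k⁻¹ u)
          refine ⟨t, ?_⟩
          rw [← Module.End.mul_apply, ← map_mul, mul_inv_cancel, map_one, Module.End.one_apply] at ht
          rw [Units.inv_mul_eq_iff_eq_mul, mul_smul_comm, ← mul_assoc, ht, smul_mul_assoc, smul_smul,
            sgn2_mul_self, one_smul, Units.mul_inv_cancel_right]⟩ }
  let π : R →* K := MonoidHom.mk' (fun T => T.2.2.choose) fun T T' =>
    huniq (T * T').2.2.choose_spec (hmul T.2.2.choose_spec T'.2.2.choose_spec)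
  have hπ : ∀ T : R, Rel T (π T) := fun T => T.2.2.choose_spec
  have hsq : ∀ x : U × ZMod 2, (sgn2 x.2 • b x.1) * (sgn2 (β x.1 x.1) • sgn2 x.2 • b x.1) = 1 :=
    fun x => by rw [smul_comm, smul_mul_smul_comm, sgn2_mul_self, one_smul, tw_mul_inv hb0 hb]
  let E : U × ZMod 2 → Aˣ := fun x => ⟨sgn2 x.2 • b x.1, sgn2 (β x.1 x.1) • sgn2 x.2 • b x.1,
    hsq x, by rw [smul_mul_assoc, ← mul_smul_comm, hsq]⟩
  have hE : ∀ x, Rel (E x) 1 := fun x u => ⟨β x.1 u + β u x.1, by
    simp only [E, map_one, Module.End.one_apply, smul_mul_assoc, mul_smul_comm, hb, smul_smul,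
      ← sgn2_add, add_comm u]
    congr 2
    linear_combination -CharTwo.add_self_eq_zero (β u x.1)⟩
  have habs : ∀ t, |sgn2 t| = 1 := fun t => by rcases zmod2_cases t with rfl | rfl <;> simp
  have hER : ∀ x, E x ∈ R := fun x => ⟨by
    have h1 := congrArg (fun y => |Algebra.norm ℝ y|) (hsq x)
    simp only [Algebra.smul_def (sgn2 (β _ _)), map_mul, Algebra.norm_algebraMap, abs_mul, abs_pow,
      habs, one_pow, one_mul, map_one, abs_one] at h1
    exact (mul_self_eq_one_iff.mp h1).resolve_right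
      (by linarith [abs_nonneg (Algebra.norm ℝ (sgn2 x.2 • b x.1))] : _ ≠ _), 1, hE x⟩
  let j0 : U × ZMod 2 → π.ker := fun x => ⟨⟨E x, hER x⟩, huniq (hπ _) (hE x)⟩
  have hj0 : ∀ x, (((j0 x : R) : Aˣ) : A) = sgn2 x.2 • b x.1 := fun x => rfl
  have hext : ∀ {a a' : R}, ((a : Aˣ) : A) = (a' : Aˣ) → a = a' := fun h =>
    Subtype.ext (Units.ext h)
  have hbij : Function.Bijective j0 := by
    refine ⟨fun x y h => ?_, fun T => ?_⟩
    · have h1 := hinj ((hj0 x).symm.trans (h ▸ hj0 y))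
      exact Prod.ext h1.1 h1.2
    · have h1 := hπ T
      rw [MonoidHom.mem_ker.mp T.2] at h1
      have : Nontrivial A := ⟨⟨_, _, b.ne_zero 0⟩⟩
      obtain ⟨c, v, hc⟩ := tw_scalar hb0 hb hnd (Units.ne_zero _) (by simpa [Rel] using h1)
      have h2 := T.1.2.1
      have h3 : |Algebra.norm ℝ (sgn2 0 • b v)| = 1 := (hER (v, 0)).1
      rw [sgn2_zero, one_smul] at h3
      rw [hc, Algebra.smul_def, map_mul, Algebra.norm_algebraMap, abs_mul, h3, mul_one, abs_pow,
        pow_eq_one_iff_of_nonneg (abs_nonneg c) hd, abs_eq zero_le_one] at h2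
      rcases h2 with rfl | rfl
      · exact ⟨(v, 0), Subtype.ext (hext (by rw [hj0, hc, sgn2_zero]))⟩
      · exact ⟨(v, 1), Subtype.ext (hext (by rw [hj0, hc, sgn2_one]))⟩
  refine ⟨R, inferInstance, π, Equiv.ofBijective j0 hbij, fun k => ?_,
    fun x y => Subtype.ext (hext ?_), fun r x => ?_⟩
  · obtain ⟨T, h1, h2⟩ := tw_lift hb0 hb hnd (ρ k) (hq k)
    exact ⟨⟨T, h1, k, h2⟩, huniq (hπ _) h2⟩
  · simp only [Equiv.ofBijective_apply, Subgroup.coe_mul, Units.val_mul, hj0, smul_mul_smul_comm,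
      hb, smul_smul, sgn2_add]
  · obtain ⟨t, ht⟩ := hπ r x.1
    refine ⟨x.2 + t, hext ?_⟩
    simp only [Equiv.ofBijective_apply, Subgroup.coe_mul, Units.val_mul, hj0, mul_smul_comm, ht,
      smul_smul, sgn2_add, smul_mul_assoc, Subgroup.coe_inv, Units.mul_inv_cancel_right]

end Twisted

end Cfsg.H4
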